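import Cfsg.Agent.Lib.Helper35.Suz22880.PChk1

namespace Cfsg.Agent.Lib.Helper35.Suz22880

open Cfsg.Agent.Lib.Helper35

theorem hsub : allBelow (fixAll sl) 1 = true := by decide +kernel

noncomputable def permData : PermData PresSuz.cc.C PresSuz.cc.inv PresSuz.R S 22879 where
  pt := pt
  hinvC := PresSuz.hinvC
  hinv2 := PresSuz.hinv2
  hinvE := PresSuz.hinvE
  hchk := by
    intro c hc
    have hc' : c < 7 := hc
    interval_cases c
    exacts [c0u1, c1u1, c2u1, c3u1, c4u1, c5u1, c6u1]
  hrel := fix_of_leaves' rl 22880 ru240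
  hsub := fun b hb => fix_of_leaves sl 1 hsub b hb 0 (by decide)
  hRC := PresSuz.hRC
  hSC := by decide +kernel
  tp := tp
  cK := 8
  htree := tu2

end Cfsg.Agent.Lib.Helper35.Suz22880
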